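import Mathlib
import Cfsg.Agent.Lib.Helper71.SUG2.Defs
import Cfsg.Agent.S0780

/-!
# Project SUG2 (S2412, block [II]): package [II-SUGEN]

A subgroup of `SU_n(2)`, `n ≥ 4`, containing every transvection `T_v` (`v` isotropic) is the whole
group.  Uses the generation theorem S0780 and the fact that `x ↦ x + c H(x,v) v` is an isometry
only for `c ∈ {0, 1}` (when `v ≠ 0`).
-/

set_option autoImplicit false
open scoped Matrix

namespace Cfsg.Agent.Lib.Helper16.SUG2

open Cfsg.Agent.Lib.Helper71.SUG2

universe u

theorem ut_mulVec {F : Type u} [Field F] (n : ℕ) (v x : Fin n → F) (c : F) :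
    Cfsg.unitaryTransvection n 2 v c *ᵥ x = x + (c * H n F x v) • v := by
  unfold Cfsg.unitaryTransvection
  rw [Matrix.add_mulVec, Matrix.one_mulVec, Matrix.smul_mulVec, Matrix.vecMulVec_mulVec,
    op_smul_eq_smul, smul_smul]
  congr 2
  congr 1
  unfold dotProduct
  apply Finset.sum_congr rfl
  intro i _
  ring

theorem ut_zero_c {F : Type u} [Field F] (n : ℕ) (v : Fin n → F) :
    Cfsg.unitaryTransvection n 2 v (0 : F) = 1 := by
  unfold Cfsg.unitaryTransvection
  rw [zero_smul, add_zero]

theorem ut_zero_v {F : Type u} [Field F] (n : ℕ) (c : F) :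
    Cfsg.unitaryTransvection n 2 (0 : Fin n → F) c = 1 := by
  unfold Cfsg.unitaryTransvection
  rw [Matrix.zero_vecMulVec, smul_zero, add_zero]

theorem H_add_smul {F : Type u} [Field F] (h2 : (2 : F) = 0) (n : ℕ) (x v : Fin n → F) (c : F) :
    H n F (x + c • v) (x + c • v)
      = H n F x x + c ^ 2 * H n F x v + c * H n F v x + c ^ 3 * H n F v v := by
  simp only [H_apply, Finset.mul_sum, ← Finset.sum_add_distrib]
  apply Finset.sum_congr rfl
  intro j _
  simp only [Pi.add_apply, Pi.smul_apply, smul_eq_mul]
  linear_combination (x j ^ 2 * c * v j + x j * c ^ 2 * v j ^ 2) * h2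

theorem H_zero_zero {F : Type u} [Field F] (n : ℕ) : H n F (0 : Fin n → F) 0 = 0 := by
  rw [H_apply]
  apply Finset.sum_eq_zero
  intro i _
  simp

/-- [II-SUGEN] a subgroup containing all transvections is everything. -/
theorem pkgSUGen : PkgSUGen.{u} := by
  intro F _ _ hF n hn K hK
  have h2 : (2 : F) = 0 := f4_two hF
  have htop := Cfsg.Agent.S0780.result hF n (by omega) (by omega)
  rw [eq_top_iff, ← htop, Subgroup.closure_le]
  rintro A ⟨v, c, hv, hA⟩
  have hA' : smat A = Cfsg.unitaryTransvection n 2 v c := hA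
  have hv' : H n F v v = 0 := hv
  by_cases h0 : c = 0 ∨ v = 0
  · have h1 : smat A = Tmat n F 0 := by
      rw [hA']
      have e1 : Tmat n F (0 : Fin n → F) = 1 := ut_zero_v n 1
      rw [e1]
      rcases h0 with h | h
      · rw [h]; exact ut_zero_c n v
      · rw [h]; exact ut_zero_v n c
    exact (hK 0 (H_zero_zero n)).2 A h1
  · push Not at h0
    obtain ⟨hc, hv0⟩ := h0
    obtain ⟨i, hi⟩ : ∃ i, v i ≠ 0 := by
      by_contra hcon
      push Not at hcon
      exact hv0 (funext hcon)
    have hvi3 : v i ^ 3 = 1 := f4_cube hF (v i) hi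
    have hxv : H n F (Pi.single i (v i)) v = 1 := by
      rw [H_apply, Finset.sum_eq_single i]
      · rw [Pi.single_eq_same, ← hvi3]; ring
      · intro j _ hji
        rw [Pi.single_eq_of_ne hji]; ring
      · intro h; exact absurd (Finset.mem_univ i) h
    have hvx : H n F v (Pi.single i (v i)) = 1 := by
      rw [H_apply, Finset.sum_eq_single i]
      · rw [Pi.single_eq_same, ← hvi3]; ring
      · intro j _ hji
        rw [Pi.single_eq_of_ne hji]; ring
      · intro h; exact absurd (Finset.mem_univ i) h
    have hiso := H_smat A (Pi.single i (v i)) (Pi.single i (v i))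
    rw [hA', ut_mulVec, hxv, mul_one, H_add_smul h2, hxv, hvx, hv'] at hiso
    have hcc : c * (c + 1) = 0 := by linear_combination hiso
    have hc1 : c = 1 := by
      rcases mul_eq_zero.mp hcc with h | h
      · exact absurd h hc
      · linear_combination h - h2
    have h1 : smat A = Tmat n F v := by rw [hA', hc1]
    exact (hK v hv').2 A h1

end Cfsg.Agent.Lib.Helper16.SUG2
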